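-- helper74: GUSP (S5976) package [SPCARD]: the order of `spGL`.
import Mathlib
import Cfsg.Agent.Lib.Helper99.GUSP.Defs
import Cfsg.Agent.Lib.Helper13.Symp
import Cfsg.Agent.Lib.Helper40.SympOrder

set_option autoImplicit false

namespace Cfsg.Agent.Lib.Helper74.GUSP

open Matrix Cfsg.Agent.Lib.Helper99.GUSP

universe u

/-- `spGL d F` is in bijection with Mathlib's symplectic group. -/
noncomputable def spGLEquiv (d : ℕ) (F : Type u) [Field F] :
    ↥(Cfsg.spGL d F) ≃ ↥(Matrix.symplecticGroup (Fin d) F) where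
  toFun g := ⟨((g : GL (SI d) F) : Matrix (SI d) (SI d) F),
    Cfsg.Agent.Lib.Helper13.mem_symplecticGroup_of_sympForm d g.2⟩
  invFun A := ⟨⟨A.1, (A⁻¹).1,
      by rw [← Submonoid.coe_mul, mul_inv_cancel, Submonoid.coe_one],
      by rw [← Submonoid.coe_mul, inv_mul_cancel, Submonoid.coe_one]⟩,
    fun u v => Cfsg.Agent.Lib.Helper13.sympForm_mulVec_of_mem d A.2 u v⟩
  left_inv g := Subtype.ext (Units.ext rfl)
  right_inv A := Subtype.ext rfl

theorem pkgSpCard : PkgSpCard.{u} := by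
  intro F _ _ d
  rw [Nat.card_congr (spGLEquiv d F)]
  exact Cfsg.Agent.Lib.Helper40.card_symplecticGroup d

end Cfsg.Agent.Lib.Helper74.GUSP
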