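-- helper74: GUSP (S5976) package [INVP]: an involution of `Sp` commutes with some `α`.
import Mathlib
import Cfsg.Agent.Lib.Helper99.GUSP.Defs
import Cfsg.Agent.Lib.Helper99.Symp
import Cfsg.Agent.Lib.Helper40.Symp
import Cfsg.Agent.Lib.Helper94.SpBasis

set_option autoImplicit false

namespace Cfsg.Agent.Lib.Helper74.GUSP

open Matrix Cfsg.Agent.Lib.Helper99.GUSP

universe u

section abstractAlpha

variable {F : Type*} [Field F] {V : Type*} [AddCommGroup V] [Module F V]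
  (Bf : LinearMap.BilinForm F V) {ι : Type*} [Fintype ι]

/-- `v ↦ ∑ (B(v,b_l) b_l - a B(v,a_l) a_l)`. -/
noncomputable def alphaL (a : F) (A Bv : ι → V) : V →ₗ[F] V :=
  ∑ l, ((Bf.flip (Bv l)).smulRight (Bv l) - a • (Bf.flip (A l)).smulRight (A l))

theorem alphaL_apply (a : F) (A Bv : ι → V) (v : V) :
    alphaL Bf a A Bv v = ∑ l, (Bf v (Bv l) • Bv l - (a * Bf v (A l)) • A l) := by
  simp [alphaL, LinearMap.sum_apply, mul_smul]

theorem alphaL_sq [DecidableEq ι] (a : F) (A Bv : ι → V)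
    (haa : ∀ l l', Bf (A l) (A l') = 0) (hbb : ∀ l l', Bf (Bv l) (Bv l') = 0)
    (hab : ∀ l l', Bf (A l) (Bv l') = if l = l' then 1 else 0)
    (hba : ∀ l l', Bf (Bv l) (A l') = if l = l' then -1 else 0)
    (hexp : ∀ v, v = ∑ l, (Bf v (Bv l) • A l - Bf v (A l) • Bv l)) (v : V) :
    alphaL Bf a A Bv (alphaL Bf a A Bv v) = a • v := by
  have h1 : ∀ m, Bf (alphaL Bf a A Bv v) (Bv m) = -(a * Bf v (A m)) := by
    intro m
    rw [alphaL_apply]
    simp [hbb, hab]
  have h2 : ∀ m, Bf (alphaL Bf a A Bv v) (A m) = -(Bf v (Bv m)) := by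
    intro m
    rw [alphaL_apply]
    simp [haa, hba]
  rw [alphaL_apply Bf a A Bv (alphaL Bf a A Bv v)]
  simp only [h1, h2]
  conv_rhs => rw [hexp v]
  rw [Finset.smul_sum]
  refine Finset.sum_congr rfl fun l _ => ?_
  rw [smul_sub, smul_smul, smul_smul, neg_smul, mul_neg, neg_smul, sub_neg_eq_add]
  abel

theorem alphaL_skew (a : F) (A Bv : ι → V) (halt : ∀ u v, Bf u v = - Bf v u) (v w : V) :
    Bf (alphaL Bf a A Bv v) w = - Bf v (alphaL Bf a A Bv w) := by
  rw [alphaL_apply, alphaL_apply]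
  simp only [map_sum, map_sub, map_smul, LinearMap.sum_apply, LinearMap.sub_apply,
    LinearMap.smul_apply, smul_eq_mul]
  rw [← Finset.sum_neg_distrib]
  refine Finset.sum_congr rfl fun l _ => ?_
  rw [halt (Bv l) w, halt (A l) w]
  ring

theorem alphaL_comm (a : F) (A Bv : ι → V) (X : V →ₗ[F] V)
    (hX : ∀ u v, Bf (X u) (X v) = Bf u v) (ε : ι → F) (hε : ∀ l, ε l * ε l = 1)
    (hA : ∀ l, X (A l) = ε l • A l) (hB : ∀ l, X (Bv l) = ε l • Bv l) (v : V) :
    X (alphaL Bf a A Bv v) = alphaL Bf a A Bv (X v) := by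
  have h1 : ∀ l, Bf (X v) (Bv l) = ε l * Bf v (Bv l) := by
    intro l
    have h := hX v (Bv l)
    rw [hB l, map_smul, smul_eq_mul] at h
    rw [← h, ← mul_assoc, hε, one_mul]
  have h2 : ∀ l, Bf (X v) (A l) = ε l * Bf v (A l) := by
    intro l
    have h := hX v (A l)
    rw [hA l, map_smul, smul_eq_mul] at h
    rw [← h, ← mul_assoc, hε, one_mul]
  rw [alphaL_apply, alphaL_apply, map_sum]
  refine Finset.sum_congr rfl fun l _ => ?_
  rw [map_sub, map_smul, map_smul, hA, hB, h1, h2, smul_smul, smul_smul]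
  congr 1 <;> congr 1 <;> ring

end abstractAlpha

section concrete

variable {F : Type u} [Field F] {d : ℕ}

theorem mat_ext_mulVec {M N : Matrix (SI d) (SI d) F} (h : ∀ v, M *ᵥ v = N *ᵥ v) : M = N :=
  Matrix.toLin'.injective (LinearMap.ext fun v => by
    rw [Matrix.toLin'_apply, Matrix.toLin'_apply]; exact h v)

/-- The `ε`-eigenspace of a matrix. -/
def eigSub (X : Matrix (SI d) (SI d) F) (ε : F) : Submodule F (SI d → F) where
  carrier := {v | X *ᵥ v = ε • v}
  add_mem' := by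
    intro u v hu hv
    simp only [Set.mem_ofPred_eq] at hu hv ⊢
    rw [Matrix.mulVec_add, hu, hv, smul_add]
  zero_mem' := by simp
  smul_mem' := by
    intro c v hv
    simp only [Set.mem_ofPred_eq] at hv ⊢
    rw [Matrix.mulVec_smul, hv, smul_comm]

theorem mem_eigSub (X : Matrix (SI d) (SI d) F) (ε : F) (v : SI d → F) :
    v ∈ eigSub X ε ↔ X *ᵥ v = ε • v := Iff.rfl

theorem sf_neg_right' (u v : SI d → F) :
    Cfsg.sympForm d F u (-v) = - Cfsg.sympForm d F u v := by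
  rw [← Cfsg.Agent.Lib.Helper99.sympB_apply, ← Cfsg.Agent.Lib.Helper99.sympB_apply, map_neg]

theorem nondeg_of_decomp (W W' : Submodule F (SI d → F))
    (horth : ∀ u ∈ W, ∀ v ∈ W', Cfsg.sympForm d F u v = 0)
    (hdec : ∀ v : SI d → F, ∃ p ∈ W, ∃ m ∈ W', v = p + m) :
    Cfsg.Geo.IsNondegenerateOn (Cfsg.sympForm d F) W := by
  intro w hw hw0
  obtain ⟨y, hy⟩ := Cfsg.Agent.Lib.Helper40.exists_sympForm_eq_one d w hw0
  obtain ⟨p, hp, m, hm, hpm⟩ := hdec y
  rw [hpm, Cfsg.Agent.Lib.Helper94.sf_add_right, horth w hw m hm, add_zero] at hy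
  refine ⟨⟨p, hp, ?_⟩, ⟨p, hp, ?_⟩⟩
  · rw [Cfsg.Agent.Lib.Helper94.sf_swap, hy]
    simp
  · rw [hy]
    exact one_ne_zero

theorem exists_alpha_of_basis {ι : Type} [Fintype ι] [DecidableEq ι] (a : F)
    (X : Matrix (SI d) (SI d) F)
    (hX : ∀ u v, Cfsg.sympForm d F (X *ᵥ u) (X *ᵥ v) = Cfsg.sympForm d F u v)
    (A Bv : ι → (SI d → F)) (ε : ι → F)
    (haa : ∀ l l', Cfsg.sympForm d F (A l) (A l') = 0)
    (hbb : ∀ l l', Cfsg.sympForm d F (Bv l) (Bv l') = 0)
    (hab : ∀ l l', Cfsg.sympForm d F (A l) (Bv l') = if l = l' then 1 else 0)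
    (hexp : ∀ v, v = ∑ l, (Cfsg.sympForm d F v (Bv l) • A l - Cfsg.sympForm d F v (A l) • Bv l))
    (hε : ∀ l, ε l * ε l = 1) (hA : ∀ l, X *ᵥ A l = ε l • A l)
    (hB : ∀ l, X *ᵥ Bv l = ε l • Bv l) :
    ∃ α : Matrix (SI d) (SI d) F, IsAlpha d a α ∧ X * α = α * X := by
  obtain ⟨Bf, hBf⟩ : ∃ Bf : LinearMap.BilinForm F (SI d → F),
      ∀ u v, Bf u v = Cfsg.sympForm d F u v :=
    ⟨Cfsg.Agent.Lib.Helper99.sympB (F := F) d, Cfsg.Agent.Lib.Helper99.sympB_apply d⟩
  have halt : ∀ u v, Bf u v = - Bf v u := by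
    intro u v
    rw [hBf, hBf]
    exact Cfsg.Agent.Lib.Helper94.sf_swap d u v
  have hα : ∀ v, (LinearMap.toMatrix' (alphaL Bf a A Bv)) *ᵥ v = alphaL Bf a A Bv v := by
    intro v
    rw [← Matrix.toLin'_apply, Matrix.toLin'_toMatrix']
  refine ⟨LinearMap.toMatrix' (alphaL Bf a A Bv), ⟨?_, ?_⟩, ?_⟩
  · apply mat_ext_mulVec
    intro v
    rw [← Matrix.mulVec_mulVec, hα, hα, Matrix.smul_mulVec, Matrix.one_mulVec]
    apply alphaL_sq Bf a A Bv
    · intro l l'; rw [hBf]; exact haa l l'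
    · intro l l'; rw [hBf]; exact hbb l l'
    · intro l l'; rw [hBf]; exact hab l l'
    · intro l l'
      rw [halt, hBf, hab l' l]
      by_cases h : l = l'
      · rw [if_pos h, if_pos h.symm]
      · rw [if_neg h, if_neg (Ne.symm h), neg_zero]
    · intro v
      simp only [hBf]
      exact hexp v
  · intro v w
    rw [hα, hα, ← hBf, ← hBf]
    exact alphaL_skew Bf a A Bv halt v w
  · apply mat_ext_mulVec
    intro v
    rw [← Matrix.mulVec_mulVec, ← Matrix.mulVec_mulVec, hα, hα]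
    have h := alphaL_comm Bf a A Bv (Matrix.toLin' X)
      (by intro u v; rw [Matrix.toLin'_apply, Matrix.toLin'_apply, hBf, hBf]; exact hX u v) ε hε
      (by intro l; rw [Matrix.toLin'_apply]; exact hA l)
      (by intro l; rw [Matrix.toLin'_apply]; exact hB l) v
    rw [Matrix.toLin'_apply, Matrix.toLin'_apply] at h
    exact h

end concrete

theorem two_ne_zero_of_odd_card' {F : Type*} [Field F] [Fintype F]
    (hodd : Odd (Fintype.card F)) : (2 : F) ≠ 0 := by
  intro h2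
  have h1 : addOrderOf (1 : F) ∣ 2 :=
    addOrderOf_dvd_of_nsmul_eq_zero (by rw [nsmul_eq_mul]; simpa using h2)
  have h3 : addOrderOf (1 : F) ∣ Fintype.card F := addOrderOf_dvd_card
  rcases (Nat.dvd_prime Nat.prime_two).mp h1 with h | h
  · rw [AddMonoid.addOrderOf_eq_one_iff] at h
    exact one_ne_zero h
  · rw [h] at h3
    exact (Nat.not_even_iff_odd.mpr hodd) (even_iff_two_dvd.mpr h3)

theorem pkgInvP : PkgInvP.{u} := by
  intro F _ _ hodd d a ha x hx hxx
  have h2 : (2 : F) ≠ 0 := two_ne_zero_of_odd_card' hodd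
  obtain ⟨X, hXdef⟩ : ∃ X : Matrix (SI d) (SI d) F, X = (x : Matrix (SI d) (SI d) F) := ⟨_, rfl⟩
  rw [← hXdef] at hxx ⊢
  have hX : ∀ u v, Cfsg.sympForm d F (X *ᵥ u) (X *ᵥ v) = Cfsg.sympForm d F u v := by
    rw [hXdef]; exact hx
  have hXX : ∀ v, X *ᵥ (X *ᵥ v) = v := by
    intro v
    rw [Matrix.mulVec_mulVec, hxx, Matrix.one_mulVec]
  have horth : ∀ u ∈ eigSub X 1, ∀ v ∈ eigSub X (-1), Cfsg.sympForm d F u v = 0 := by
    intro u hu v hv
    rw [mem_eigSub, one_smul] at hu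
    rw [mem_eigSub, neg_smul, one_smul] at hv
    have h := hX u v
    rw [hu, hv, sf_neg_right'] at h
    have h' : (2 : F) * Cfsg.sympForm d F u v = 0 := by linear_combination (-1 : F) * h
    rcases mul_eq_zero.mp h' with h'' | h''
    · exact absurd h'' h2
    · exact h''
  have horth' : ∀ u ∈ eigSub X (-1), ∀ v ∈ eigSub X 1, Cfsg.sympForm d F u v = 0 := by
    intro u hu v hv
    rw [Cfsg.Agent.Lib.Helper94.sf_swap, horth v hv u hu, neg_zero]
  have hdec : ∀ v : SI d → F, ∃ p ∈ eigSub X 1, ∃ m ∈ eigSub X (-1), v = p + m := by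
    intro v
    refine ⟨(2 : F)⁻¹ • (v + X *ᵥ v), ?_, (2 : F)⁻¹ • (v - X *ᵥ v), ?_, ?_⟩
    · rw [mem_eigSub, one_smul, Matrix.mulVec_smul, Matrix.mulVec_add, hXX, add_comm]
    · rw [mem_eigSub, neg_smul, one_smul, Matrix.mulVec_smul, Matrix.mulVec_sub, hXX, ← smul_neg,
        neg_sub]
    · rw [← smul_add, add_add_sub_cancel, ← two_smul F v, smul_smul, inv_mul_cancel₀ h2, one_smul]
  have hdec' : ∀ v : SI d → F, ∃ p ∈ eigSub X (-1), ∃ m ∈ eigSub X 1, v = p + m := by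
    intro v
    obtain ⟨p, hp, m, hm, hv⟩ := hdec v
    exact ⟨m, hm, p, hp, by rw [hv, add_comm]⟩
  have hndp := nondeg_of_decomp (eigSub X 1) (eigSub X (-1)) horth hdec
  have hndm := nondeg_of_decomp (eigSub X (-1)) (eigSub X 1) horth' hdec'
  obtain ⟨rp, hrp⟩ := Cfsg.Agent.Lib.Helper94.exists_even_finrank _ hndp
  obtain ⟨ap, bp, hP⟩ := Cfsg.Agent.Lib.Helper94.exists_sympBasis _ rp hrp hndp
  obtain ⟨rm, hrm⟩ := Cfsg.Agent.Lib.Helper94.exists_even_finrank _ hndm
  obtain ⟨am, bm, hM⟩ := Cfsg.Agent.Lib.Helper94.exists_sympBasis _ rm hrm hndm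
  obtain ⟨α, hα, hc⟩ := exists_alpha_of_basis (ι := Fin rp ⊕ Fin rm) a X hX
    (Sum.elim ap am) (Sum.elim bp bm) (Sum.elim (fun _ => 1) (fun _ => -1))
    (by
      rintro (l | l) (l' | l') <;> simp only [Sum.elim_inl, Sum.elim_inr]
      · exact hP.aa l l'
      · exact horth _ (hP.mem_a l) _ (hM.mem_a l')
      · exact horth' _ (hM.mem_a l) _ (hP.mem_a l')
      · exact hM.aa l l')
    (by
      rintro (l | l) (l' | l') <;> simp only [Sum.elim_inl, Sum.elim_inr]
      · exact hP.bb l l'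
      · exact horth _ (hP.mem_b l) _ (hM.mem_b l')
      · exact horth' _ (hM.mem_b l) _ (hP.mem_b l')
      · exact hM.bb l l')
    (by
      rintro (l | l) (l' | l') <;> simp only [Sum.elim_inl, Sum.elim_inr]
      · rw [hP.ab l l']; simp
      · rw [horth _ (hP.mem_a l) _ (hM.mem_b l')]; simp
      · rw [horth' _ (hM.mem_a l) _ (hP.mem_b l')]; simp
      · rw [hM.ab l l']; simp)
    (by
      intro v
      obtain ⟨p, hp, m, hm, hv⟩ := hdec v
      rw [Fintype.sum_sum_type]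
      simp only [Sum.elim_inl, Sum.elim_inr]
      have e1 : ∀ l, Cfsg.sympForm d F v (bp l) = Cfsg.sympForm d F p (bp l) := by
        intro l
        rw [hv, Cfsg.Agent.Lib.Helper94.sf_add_left, horth' m hm _ (hP.mem_b l), add_zero]
      have e2 : ∀ l, Cfsg.sympForm d F v (ap l) = Cfsg.sympForm d F p (ap l) := by
        intro l
        rw [hv, Cfsg.Agent.Lib.Helper94.sf_add_left, horth' m hm _ (hP.mem_a l), add_zero]
      have e3 : ∀ l, Cfsg.sympForm d F v (bm l) = Cfsg.sympForm d F m (bm l) := by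
        intro l
        rw [hv, Cfsg.Agent.Lib.Helper94.sf_add_left, horth p hp _ (hM.mem_b l), zero_add]
      have e4 : ∀ l, Cfsg.sympForm d F v (am l) = Cfsg.sympForm d F m (am l) := by
        intro l
        rw [hv, Cfsg.Agent.Lib.Helper94.sf_add_left, horth p hp _ (hM.mem_a l), zero_add]
      simp only [e1, e2, e3, e4]
      rw [← hP.expand p hp, ← hM.expand m hm]
      exact hv)
    (by rintro (l | l) <;> simp)
    (by
      rintro (l | l) <;> simp only [Sum.elim_inl, Sum.elim_inr]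
      · exact hP.mem_a l
      · exact hM.mem_a l)
    (by
      rintro (l | l) <;> simp only [Sum.elim_inl, Sum.elim_inr]
      · exact hP.mem_b l
      · exact hM.mem_b l)
  exact ⟨α, hα, Or.inl hc⟩

end Cfsg.Agent.Lib.Helper74.GUSP
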